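import Cfsg.Agent.FGS2.Co3.Basic
import Cfsg.Agent.FGS2.Co3.Data

/-! Six base points separate the elements of the third Conway group. -/

set_option autoImplicit false
set_option maxRecDepth 100000

namespace Cfsg.Agent.FGS2.Co3

open Cfsg.Agent.Screen.CosetEnum (bit addBit force force_eq bit_addBit bit_eq countAll countGo countAll_eq countGo_eq)

/-- The value of an element at a point. -/
noncomputable def val (g : Q) (c : Fin 552) : ↥leechLattice := (g : Equiv.Perm ↥leechLattice) (pt552 c)

theorem val_mul (g h : Q) (c : Fin 552) : val (g * h) c = (g : Equiv.Perm ↥leechLattice) (val h c) := rfl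

theorem val_word {w : List ℕ} (hw : lOK w = true) (c : Fin 552) :
    ∃ d : Fin 552, (d : ℕ) = act w c ∧ val (kE w) c = pt552 d := act_spec hw c

theorem val_fix {w : List ℕ} (hw : lOK w = true) {c : Fin 552} (h : Nat.beq (act w c) c = true) :
    val (kE w) c = pt552 c := by
  obtain ⟨d, hd, e⟩ := val_word hw c
  rw [e, show d = c from Fin.ext (hd.trans (Nat.eq_of_beq_eq_true h))]

/-- The bit set reached along a chain of coded steps (earlier point times sixteen plus generator). -/
def chainC (gs : List (List ℕ)) : List ℕ → ℕ → Option ℕ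
  | [], s => some s
  | k :: l, s =>
    bif bit s (k / 16) && Nat.blt (k / 16) 552 && Nat.blt (k % 16) gs.length then
      force (addBit s (act (gs.getD (k % 16) []) (k / 16))) fun s' => chainC gs l s'
    else none

/-- The check of one level of the base. -/
def levelOK (i : ℕ) (gs : List (List ℕ)) (l : List ℕ) : Bool :=
  Nat.blt (cBase.getD i 0) 552 &&
    gs.all (fun g => lOK g && (cBase.take i).all fun c => Nat.blt c 552 && Nat.beq (act g c) c) &&
    (chainC gs l (addBit 0 (cBase.getD i 0))).any fun s => Nat.beq (countAll s 552 3) (cSizes.getD i 0)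

theorem level_spec {i : ℕ} {gs : List (List ℕ)} {l : List ℕ} (h : levelOK i gs l = true) :
    ∃ s : Fin 552, (s : ℕ) = cBase.getD i 0 ∧ ∃ t : Fin (cSizes.getD i 0) → Q,
      (∀ j, ∀ c : Fin 552, (c : ℕ) ∈ cBase.take i → val (t j) c = pt552 c) ∧
        Function.Injective fun j => val (t j) s := by
  simp only [levelOK, Bool.and_eq_true, Nat.blt_eq] at h
  obtain ⟨⟨hst, hgs⟩, hch⟩ := h
  have hgs' := List.all_eq_true.1 hgs
  refine ⟨⟨_, hst⟩, rfl, ?_⟩
  set start := cBase.getD i 0 with hstart
  set P : ℕ → Prop := fun c => ∃ g : Q, (∀ d : Fin 552, (d : ℕ) ∈ cBase.take i → val g d = pt552 d) ∧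
    ∃ e : Fin 552, (e : ℕ) = c ∧ val g ⟨start, hst⟩ = pt552 e with hP
  have key : ∀ (l : List ℕ) (s s' : ℕ), chainC gs l s = some s' → (∀ c, bit s c = true → P c) →
      ∀ c, bit s' c = true → P c := by
    intro l
    induction l with
    | nil => intro s s' h hs; simp only [chainC, Option.some.injEq] at h; exact h ▸ hs
    | cons k l ih =>
      intro s s' h hs
      unfold chainC at h
      simp only [force_eq] at h
      cases hb : (bit s (k / 16) && Nat.blt (k / 16) 552 && Nat.blt (k % 16) gs.length) with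
      | false => simp [hb] at h
      | true =>
        simp only [hb, cond_true] at h
        simp only [Bool.and_eq_true, Nat.blt_eq] at hb
        refine ih _ _ h fun c hc => ?_
        rw [bit_addBit, Bool.or_eq_true, decide_eq_true_iff] at hc
        rcases hc with hc | rfl
        · exact hs c hc
        obtain ⟨g, hg, e, he, hge⟩ := hs _ hb.1.1
        rw [List.getD_eq_getElem _ _ hb.2]
        set w := gs[k % 16]'hb.2
        have hw := hgs' w (List.getElem_mem _)
        simp only [Bool.and_eq_true, List.all_eq_true, Nat.blt_eq] at hw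
        refine ⟨kE w * g, fun d hd => ?_, ?_⟩
        · rw [val_mul, hg d hd]
          exact val_fix hw.1 (hw.2 _ hd).2
        · obtain ⟨d, hd, hde⟩ := val_word hw.1 e
          exact ⟨d, by rw [hd, he], by rw [val_mul, hge]; exact hde⟩
  cases hc : chainC gs l (addBit 0 start) with
  | none => rw [hc] at hch; simp at hch
  | some S =>
    rw [hc] at hch
    have hcount : countAll S 552 3 = cSizes.getD i 0 := by simpa using hch
    rw [countAll_eq, countGo_eq, show Nat.min 552 (256 * 3) = 552 from rfl] at hcount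
    have hall : ∀ c, bit S c = true → P c := key l _ _ hc fun c hcs => by
      rw [bit_addBit, bit_eq, Nat.zero_testBit, Bool.false_or, decide_eq_true_iff] at hcs
      subst hcs
      exact ⟨1, fun d _ => by simp [val], ⟨start, hst⟩, rfl, by simp [val]⟩
    set F := (Finset.range 552).filter fun c => bit S c = true
    have e : Fin (cSizes.getD i 0) ≃ F :=
      (Fintype.equivFinOfCardEq (by rw [Fintype.card_coe]; exact hcount)).symm
    choose t ht using fun x : F => hall x.1 (Finset.mem_filter.1 x.2).2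
    refine ⟨fun j => t (e j), fun j c hcp => (ht (e j)).1 c hcp, fun a b hab => e.injective (Subtype.ext ?_)⟩
    obtain ⟨ea, ha1, ha2⟩ := (ht (e a)).2
    obtain ⟨eb, hb1, hb2⟩ := (ht (e b)).2
    have := pt552_inj (ha2.symm.trans (hab.trans hb2))
    rw [← ha1, ← hb1, this]

theorem level0_ok : levelOK 0 cGens0 cChain0 = true := by decide +kernel

theorem level1_ok : levelOK 1 cGens1 cChain1 = true := by decide +kernel

theorem level2_ok : levelOK 2 cGens2 cChain2 = true := by decide +kernel

theorem level3_ok : levelOK 3 cGens3 cChain3 = true := by decide +kernel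

theorem level4_ok : levelOK 4 cGens4 cChain4 = true := by decide +kernel

theorem level5_ok : levelOK 5 cGens5 cChain5 = true := by decide +kernel

theorem base_inj (g h : Q) (e : ∀ c : Fin 552, (c : ℕ) ∈ cBase → val g c = val h c) : g = h := by
  obtain ⟨s0, h0, t0, -, i0⟩ := level_spec level0_ok
  obtain ⟨s1, h1, t1, f1, i1⟩ := level_spec level1_ok
  obtain ⟨s2, h2, t2, f2, i2⟩ := level_spec level2_ok
  obtain ⟨s3, h3, t3, f3, i3⟩ := level_spec level3_ok
  obtain ⟨s4, h4, t4, f4, i4⟩ := level_spec level4_ok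
  obtain ⟨s5, h5, t5, f5, i5⟩ := level_spec level5_ok
  haveI : Finite Q := Nat.finite_of_card_ne_zero (by rw [card_Co3]; norm_num)
  let φ : Fin (cSizes.getD 0 0) × Fin (cSizes.getD 1 0) × Fin (cSizes.getD 2 0) × Fin (cSizes.getD 3 0) ×
      Fin (cSizes.getD 4 0) × Fin (cSizes.getD 5 0) → Q :=
    fun x => t0 x.1 * (t1 x.2.1 * (t2 x.2.2.1 * (t3 x.2.2.2.1 * (t4 x.2.2.2.2.1 * t5 x.2.2.2.2.2))))
  let κ : Q → _ := fun g => (val g s0, val g s1, val g s2, val g s3, val g s4, val g s5)
  have q10 : ∀ i, val (t1 i) s0 = pt552 s0 := fun i => f1 i s0 (by rw [h0]; decide)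
  have q20 : ∀ i, val (t2 i) s0 = pt552 s0 := fun i => f2 i s0 (by rw [h0]; decide)
  have q21 : ∀ i, val (t2 i) s1 = pt552 s1 := fun i => f2 i s1 (by rw [h1]; decide)
  have q30 : ∀ i, val (t3 i) s0 = pt552 s0 := fun i => f3 i s0 (by rw [h0]; decide)
  have q31 : ∀ i, val (t3 i) s1 = pt552 s1 := fun i => f3 i s1 (by rw [h1]; decide)
  have q32 : ∀ i, val (t3 i) s2 = pt552 s2 := fun i => f3 i s2 (by rw [h2]; decide)
  have q40 : ∀ i, val (t4 i) s0 = pt552 s0 := fun i => f4 i s0 (by rw [h0]; decide)
  have q41 : ∀ i, val (t4 i) s1 = pt552 s1 := fun i => f4 i s1 (by rw [h1]; decide)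
  have q42 : ∀ i, val (t4 i) s2 = pt552 s2 := fun i => f4 i s2 (by rw [h2]; decide)
  have q43 : ∀ i, val (t4 i) s3 = pt552 s3 := fun i => f4 i s3 (by rw [h3]; decide)
  have q50 : ∀ i, val (t5 i) s0 = pt552 s0 := fun i => f5 i s0 (by rw [h0]; decide)
  have q51 : ∀ i, val (t5 i) s1 = pt552 s1 := fun i => f5 i s1 (by rw [h1]; decide)
  have q52 : ∀ i, val (t5 i) s2 = pt552 s2 := fun i => f5 i s2 (by rw [h2]; decide)
  have q53 : ∀ i, val (t5 i) s3 = pt552 s3 := fun i => f5 i s3 (by rw [h3]; decide)
  have q54 : ∀ i, val (t5 i) s4 = pt552 s4 := fun i => f5 i s4 (by rw [h4]; decide)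
  simp only [val] at q10 q20 q21 q30 q31 q32 q40 q41 q42 q43 q50 q51 q52 q53 q54 i0 i1 i2 i3 i4 i5
  have hκ : Function.Injective (κ ∘ φ) := by
    rintro ⟨a, b, c, d, u, v⟩ ⟨a', b', c', d', u', v'⟩ he
    simp only [Function.comp_apply, κ, φ, val, Prod.mk.injEq, Subgroup.coe_mul, Equiv.Perm.mul_apply,
      q10, q20, q21, q30, q31, q32, q40, q41, q42, q43, q50, q51, q52, q53, q54] at he
    obtain ⟨e0, e1, e2, e3, e4, e5⟩ := he
    obtain rfl := i0 e0
    have J := fun {x y} (h : (t0 a : Equiv.Perm ↥leechLattice) x = (t0 a : Equiv.Perm ↥leechLattice) y) =>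
      (t0 a : Equiv.Perm ↥leechLattice).injective h
    obtain rfl := i1 (J e1)
    obtain rfl := i2 ((t1 b : Equiv.Perm ↥leechLattice).injective (J e2))
    obtain rfl := i3 ((t2 c : Equiv.Perm ↥leechLattice).injective ((t1 b : Equiv.Perm ↥leechLattice).injective (J e3)))
    obtain rfl := i4 ((t3 d : Equiv.Perm ↥leechLattice).injective ((t2 c : Equiv.Perm ↥leechLattice).injective
      ((t1 b : Equiv.Perm ↥leechLattice).injective (J e4))))
    obtain rfl := i5 ((t4 u : Equiv.Perm ↥leechLattice).injective ((t3 d : Equiv.Perm ↥leechLattice).injective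
      ((t2 c : Equiv.Perm ↥leechLattice).injective ((t1 b : Equiv.Perm ↥leechLattice).injective (J e5)))))
    rfl
  have hφ : Function.Surjective φ := by
    refine ((Nat.bijective_iff_injective_and_card φ).2 ⟨fun x y hxy => hκ (congrArg κ hxy), ?_⟩).2
    simp only [Nat.card_prod, Nat.card_fin, card_Co3]
    rfl
  obtain ⟨x, rfl⟩ := hφ g
  obtain ⟨y, rfl⟩ := hφ h
  rw [hκ (show κ (φ x) = κ (φ y) by
    simp only [κ, e s0 (by rw [h0]; decide), e s1 (by rw [h1]; decide), e s2 (by rw [h2]; decide),
      e s3 (by rw [h3]; decide), e s4 (by rw [h4]; decide), e s5 (by rw [h5]; decide)])]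

/-- Equality of two words at the base. -/
def eqB (u w : List ℕ) : Bool := lOK u && lOK w && cBase.all fun c => Nat.beq (act u c) (act w c)

/-- Difference of two words at some point of the base. -/
def neB (u w : List ℕ) : Bool :=
  lOK u && lOK w && cBase.any fun c => Nat.blt c 552 && !(Nat.beq (act u c) (act w c))

theorem kE_eq {u w : List ℕ} (h : eqB u w = true) : kE u = kE w := by
  simp only [eqB, Bool.and_eq_true, List.all_eq_true] at h
  refine base_inj _ _ fun c hc => ?_
  obtain ⟨d, hd, e⟩ := val_word (w := u) (by simpa [lOK] using h.1.1) c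
  obtain ⟨d', hd', e'⟩ := val_word (w := w) (by simpa [lOK] using h.1.2) c
  rw [e, e', show d = d' from Fin.ext (hd.trans ((Nat.eq_of_beq_eq_true (h.2 _ hc)).trans hd'.symm))]

theorem kE_one {w : List ℕ} (h : eqB w [] = true) : kE w = 1 := by rw [kE_eq h, kE_nil]

theorem kE_ne {u w : List ℕ} (h : neB u w = true) : kE u ≠ kE w := by
  simp only [neB, Bool.and_eq_true, List.any_eq_true, Nat.blt_eq] at h
  obtain ⟨⟨hu, hw⟩, c, -, hlt, hne⟩ := h
  intro e
  obtain ⟨d, hd, h1⟩ := val_word hu ⟨c, hlt⟩
  obtain ⟨d', hd', h2⟩ := val_word hw ⟨c, hlt⟩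
  rw [e] at h1
  have hdd : d = d' := pt552_inj (h1.symm.trans h2)
  subst hdd
  rw [show Nat.beq (act u c) (act w c) = true by rw [← hd, ← hd']; exact Nat.beq_refl _] at hne
  exact Bool.false_ne_true hne

/-- The set is closed under a word. -/
def stableGo (S : ℕ) (w : List ℕ) : ℕ → Bool
  | 0 => true
  | c + 1 => (bif bit S c then bit S (act w c) else true) && stableGo S w c

theorem stableGo_spec {S : ℕ} {w : List ℕ} : ∀ {k}, stableGo S w k = true → ∀ c < k, bit S c = true →
    bit S (act w c) = true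
  | 0, _, c, hc => absurd hc (Nat.not_lt_zero c)
  | k + 1, h, c, hc => by
    simp only [stableGo, Bool.and_eq_true] at h
    rcases Nat.lt_or_ge c k with hc' | hc'
    · exact stableGo_spec h.2 c hc'
    · obtain rfl : c = k := by omega
      intro hb
      rw [hb, cond_true] at h
      exact h.1

/-- An element moving a point out of a stable set is outside the group generated by the stabilizing words. -/
theorem not_mem_of_stable [Finite Q] {S x : ℕ} {e : List ℕ} {gs : List (List ℕ)}
    (hgs : ∀ w ∈ gs, lOK w = true ∧ stableGo S w 552 = true) (he : lOK e = true) (hx : x < 552)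
    (hS : bit S x = true) (hout : bit S (act e x) = false) :
    kE e ∉ Subgroup.closure {g : Q | ∃ w ∈ gs, kE w = g} := by
  intro hm
  let R : Set ↥leechLattice := {y | ∃ c : Fin 552, bit S c = true ∧ y = pt552 c}
  haveI : Finite R := Set.Finite.to_subtype ((Set.finite_range pt552).subset fun y ⟨c, _, hy⟩ => ⟨c, hy.symm⟩)
  have key : ∀ g ∈ Subgroup.closure {g : Q | ∃ w ∈ gs, kE w = g}, ∀ y ∈ R,
      (g : Equiv.Perm ↥leechLattice) y ∈ R := by
    intro g hg
    induction hg using Subgroup.closure_induction with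
    | mem y hy =>
      obtain ⟨w, hw, rfl⟩ := hy
      rintro _ ⟨c, hc, rfl⟩
      obtain ⟨d, hd, h⟩ := val_word (hgs w hw).1 c
      exact ⟨d, by rw [hd]; exact stableGo_spec (hgs w hw).2 c c.isLt hc, h⟩
    | one => intro y hy; simpa using hy
    | mul a b _ _ ha hb => intro y hy; rw [Subgroup.coe_mul, Equiv.Perm.mul_apply]; exact ha _ (hb y hy)
    | inv a _ ha =>
      intro y hy
      let σ : R → R := fun y => ⟨(a : Equiv.Perm ↥leechLattice) y.1, ha y.1 y.2⟩
      have hσ : Function.Injective σ := fun u v huv =>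
        Subtype.ext ((a : Equiv.Perm ↥leechLattice).injective (congrArg Subtype.val huv))
      obtain ⟨d, hd⟩ := (Finite.injective_iff_surjective.1 hσ) ⟨y, hy⟩
      have hd' : (a : Equiv.Perm ↥leechLattice) d.1 = y := congrArg Subtype.val hd
      rw [Subgroup.coe_inv, show (a : Equiv.Perm ↥leechLattice)⁻¹ y = d.1 by rw [Equiv.Perm.inv_eq_iff_eq, hd']]
      exact d.2
  obtain ⟨c, hc, hcy⟩ := key _ hm _ ⟨⟨x, hx⟩, hS, rfl⟩
  obtain ⟨d, hd, h⟩ := val_word he ⟨x, hx⟩
  have hdc : d = c := pt552_inj (h.symm.trans hcy)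
  subst hdc
  rw [hd, hout] at hc
  exact Bool.false_ne_true hc

end Cfsg.Agent.FGS2.Co3
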