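import Cfsg.Agent.FGS2.Co3.PointsCheck
import Cfsg.Agent.Golay.LeechCo3Rank
import Cfsg.Agent.Screen.CosetEnum.Orbit
import Cfsg.Prelude.Def_Spor_Conway

/-!
Eight generators of the third Conway group and their action on 552 minimal vectors, by a checked table.
-/

set_option autoImplicit false
set_option maxRecDepth 100000

namespace Cfsg.Agent.FGS2.Co3

open Cfsg.Agent.Golay
open Cfsg.Agent.Screen.CosetEnum (Tr)
open scoped Pointwise

/-- The third Conway group. -/
abbrev Q : Type := ↥Cfsg.Spor.Co3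

/-- The last generator is a permutation. -/
def lastPerm : ℕ := ((cOps.getD 3 []).getD 0 (false, 0, 0)).2.1

/-- The checks on the generators. -/
def gensOK' : Bool :=
  ((List.range 3).all fun j => ((cOps.getD j []).all fun op => orthOK [op.2])) &&
    (List.range 4).all (fun j => wordList (cOps.getD j []) (matl Cfsg.Spor.vecV) == matl Cfsg.Spor.vecV) &&
    cOps.getD 3 [] == [(false, lastPerm, 0)] && isAut lastPerm

theorem gens_check : gensOK' = true := by decide +kernel

theorem exists_el (j : ℕ) (hj : j < 4) : ∃ g : ↥Co0, ∀ v : ↥leechLattice,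
    ((g • v : ↥leechLattice) : GolayPt → ℤ) = (cOps.getD j []).foldl (fun y op => opFun op y) v := by
  have h := gens_check
  simp only [gensOK', Bool.and_eq_true, beq_iff_eq] at h
  obtain ⟨⟨⟨h1, -⟩, h3⟩, h4⟩ := h
  by_cases hj3 : j = 3
  · subst hj3
    refine ⟨monoEl (permOf lastPerm)⁻¹ (inv_mem (permOf_mem_M24 h4)) ∅ empty_mem_supports, fun v => funext fun i => ?_⟩
    rw [monoEl_apply, signedPerm_eq, h3]
    simp only [List.foldl_cons, List.foldl_nil, opFun, sgnOf, Finset.notMem_empty, if_false, one_mul,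
      Equiv.Perm.inv_def, Equiv.symm_symm, permOf_apply (permOK_of_isAut h4), Nat.zero_testBit,
      Bool.false_eq_true, cond_false]
  · obtain ⟨g, -, hg⟩ := word_elem (cOps.getD j []) (List.all_eq_true.1 h1 j (List.mem_range.2 (by omega)))
    exact ⟨g, hg⟩

theorem exists_gen (j : ℕ) (hj : j < 4) : ∃ g : Q, ∀ v : ↥leechLattice,
    matl (((g : Equiv.Perm ↥leechLattice) v : ↥leechLattice) : GolayPt → ℤ) =
      wordList (cOps.getD j []) (matl v) := by
  obtain ⟨g, hg⟩ := exists_el j hj
  have hfix : g • Cfsg.Spor.leechV = Cfsg.Spor.leechV := by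
    have h := gens_check
    simp only [gensOK', Bool.and_eq_true, beq_iff_eq] at h
    have h2 := List.all_eq_true.1 h.1.1.2 j (List.mem_range.2 hj)
    rw [beq_iff_eq, wordList_matl] at h2
    refine Subtype.ext ?_
    rw [hg, ← listVec_matl (List.foldl _ _ _)]
    exact (congrArg listVec h2).trans (listVec_matl _)
  refine ⟨⟨(g : Equiv.Perm ↥leechLattice), g.2, hfix⟩, fun v => ?_⟩
  rw [wordList_matl, ← hg v]
  rfl

/-- The first four letters. -/
noncomputable def gen4 (j : ℕ) : Q := if h : j < 4 then (exists_gen j h).choose else 1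

/-- The eight letters. -/
noncomputable def gen (x : ℕ) : Q := if x < 4 then gen4 x else (gen4 (x - 4))⁻¹

theorem pointOK_all (c : ℕ) (hc : c < 552) : pointOK c = true := by
  have key : ∀ lo, pointsOK lo 138 = true → lo ≤ c → c < lo + 138 → pointOK c = true := fun lo h h1 h2 => by
    have := List.all_eq_true.1 h (c - lo) (List.mem_range.2 (by omega))
    rwa [Nat.add_sub_cancel' h1] at this
  by_cases h0 : c < 138
  · exact key 0 points0 (by omega) (by omega)
  by_cases h1 : c < 276
  · exact key 138 points1 (by omega) (by omega)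
  by_cases h2 : c < 414
  · exact key 276 points2 (by omega) (by omega)
  exact key 414 points3 (by omega) (by omega)

theorem point_facts {c : ℕ} (hc : c < 552) : ptCode c < 2 ^ 96 ∧ (c = 0 ∨ ptCode (c - 1) < ptCode c) ∧
    numVec (ptCode c) ∈ leechLattice ∧ ∀ j < 4, img c j < 552 ∧ img c (j + 4) < 552 ∧
      img (img c (j + 4)) j = c ∧ img (img c j) (j + 4) = c ∧
      wordList (cOps.getD j []) (ptList c) = ptList (img c j) := by
  have h := pointOK_all c hc
  simp only [pointOK, Bool.and_eq_true, Bool.or_eq_true, Nat.blt_eq, beq_iff_eq] at h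
  obtain ⟨⟨⟨h1, h2⟩, h3⟩, h4⟩ := h
  refine ⟨h1, h2.imp Nat.eq_of_beq_eq_true id, leechTest_sound h3, fun j hj => ?_⟩
  have h5 := List.all_eq_true.1 h4 j (List.mem_range.2 hj)
  simp only [Bool.and_eq_true, Nat.blt_eq, beq_iff_eq] at h5
  exact ⟨h5.1.1.1.1, h5.1.1.1.2, Nat.eq_of_beq_eq_true h5.1.1.2, Nat.eq_of_beq_eq_true h5.1.2, h5.2⟩

/-- The point as a lattice vector. -/
def pt552 (c : Fin 552) : ↥leechLattice := ⟨numVec (ptCode c), (point_facts c.isLt).2.2.1⟩

theorem pt552_inj : Function.Injective pt552 := by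
  intro a b h
  have hc := Co3Rank.numVec_inj (point_facts a.isLt).1 (point_facts b.isLt).1 (congrArg Subtype.val h)
  have mono : ∀ j, j < 552 → ∀ i < j, ptCode i < ptCode j := by
    intro j
    induction j with
    | zero => intro _ i hi; omega
    | succ j ih =>
      intro hj i hi
      have h1 : ptCode j < ptCode (j + 1) := by
        rcases (point_facts hj).2.1 with e | e
        · omega
        · simpa using e
      rcases Nat.lt_or_ge i j with h2 | h2
      · exact (ih (by omega) i h2).trans h1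
      · obtain rfl : i = j := by omega
        exact h1
  rcases lt_trichotomy (a : ℕ) b with e | e | e
  · exact absurd hc (mono b b.isLt a e).ne
  · exact Fin.ext e
  · exact absurd hc.symm (mono a a.isLt b e).ne

theorem gen_pt {x : ℕ} (hx : x < 8) (c : Fin 552) : ∃ d : Fin 552, (d : ℕ) = img c x ∧
    (gen x : Equiv.Perm ↥leechLattice) (pt552 c) = pt552 d := by
  have key : ∀ j, (hj : j < 4) → ∀ c : Fin 552, (gen4 j : Equiv.Perm ↥leechLattice) (pt552 c) =
      pt552 ⟨img c j, ((point_facts c.isLt).2.2.2 j hj).1⟩ := by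
    intro j hj c
    rw [gen4, dif_pos hj]
    refine Subtype.ext ?_
    have e := ((exists_gen j hj).choose_spec (pt552 c)).trans
      (show wordList (cOps.getD j []) (matl ((pt552 c : ↥leechLattice) : GolayPt → ℤ)) = ptList (img c j) from
        ((point_facts c.isLt).2.2.2 j hj).2.2.2.2)
    have e2 := congrArg listVec e
    rw [listVec_matl, ptList, listVec_matl] at e2
    exact e2
  by_cases h4 : x < 4
  · exact ⟨⟨img c x, ((point_facts c.isLt).2.2.2 x h4).1⟩, rfl, by rw [gen, if_pos h4]; exact key x h4 c⟩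
  · obtain ⟨j, rfl⟩ : ∃ j, x = j + 4 := ⟨x - 4, by omega⟩
    have hj : j < 4 := by omega
    obtain ⟨-, h2, h3, -, -⟩ := (point_facts c.isLt).2.2.2 j hj
    refine ⟨⟨img c (j + 4), h2⟩, rfl, ?_⟩
    rw [gen, if_neg h4, Nat.add_sub_cancel, Subgroup.coe_inv, Equiv.Perm.inv_eq_iff_eq, key j hj]
    exact congrArg pt552 (Fin.ext h3).symm

/-- All letters are generators. -/
def lOK (w : List ℕ) : Bool := w.all fun x => Nat.blt x 8

/-- A word on a point. -/
def act : List ℕ → ℕ → ℕ
  | [], c => c
  | x :: w, c => Cfsg.Agent.Screen.CosetEnum.force (act w c) fun d => img d x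

/-- The element of a word. -/
noncomputable def kE (w : List ℕ) : Q := (w.map gen).prod

theorem kE_nil : kE [] = 1 := rfl

theorem kE_append (u w : List ℕ) : kE (u ++ w) = kE u * kE w := by
  rw [kE, List.map_append, List.prod_append, kE, kE]

theorem kE_rep (w : List ℕ) : ∀ i : ℕ, kE (List.replicate i w).flatten = kE w ^ i
  | 0 => by rw [pow_zero]; exact kE_nil
  | i + 1 => by rw [List.replicate_succ, List.flatten_cons, kE_append, kE_rep w i, pow_succ']

theorem act_spec : ∀ {w : List ℕ}, lOK w = true → ∀ c : Fin 552, ∃ d : Fin 552, (d : ℕ) = act w c ∧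
    (kE w : Equiv.Perm ↥leechLattice) (pt552 c) = pt552 d
  | [], _, c => ⟨c, rfl, by simp [kE_nil]⟩
  | x :: w, h, c => by
    simp only [lOK, List.all_cons, Bool.and_eq_true, Nat.blt_eq] at h
    obtain ⟨d, hd, hdc⟩ := act_spec (w := w) h.2 c
    obtain ⟨d', hd', hdc'⟩ := gen_pt h.1 d
    refine ⟨d', ?_, ?_⟩
    · rw [act, Cfsg.Agent.Screen.CosetEnum.force_eq, ← hd]; exact hd'
    · rw [show kE (x :: w) = gen x * kE w from rfl, Subgroup.coe_mul, Equiv.Perm.mul_apply, hdc, hdc']

theorem card_Co3 : Nat.card Q = 495766656000 := by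
  rw [← stab48_card (v := Cfsg.Spor.leechV) (by decide +kernel)]
  refine Nat.card_congr ⟨fun g => ⟨⟨g.1, g.2.1⟩, g.2.2⟩, fun g => ⟨g.1.1, g.1.2, g.2⟩, fun g => rfl, fun g => rfl⟩

end Cfsg.Agent.FGS2.Co3
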