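import Cfsg.Agent.FGS2.Co3.Act

/-! Checks for the odd primes dividing the order of the third Conway group. -/

set_option autoImplicit false
set_option maxRecDepth 100000

namespace Cfsg.Agent.FGS2.Co3

open Cfsg.Agent.Screen.CosetEnum (bit)

/-- A repeated word. -/
def pwW (i : ℕ) (w : List ℕ) : List ℕ := (List.replicate i w).flatten

/-- The generators of the Sylow subgroup at the prime three. -/
def w3 (i : ℕ) : List ℕ := cThree.getD i []

/-- The elementary abelian part. -/
def eW3 (i : ℕ) : List ℕ := w3 (i + 2)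

/-- A product of the elementary abelian part. -/
def flat3 (w : List ℕ) : List ℕ := (w.map eW3).flatten

/-- The elements used at the prime five. -/
def w5 (i : ℕ) : List ℕ := cFive.getD i []

/-- A commutator word of two elements of order five. -/
def cW : List ℕ := w5 0 ++ w5 1 ++ pwW 4 (w5 0) ++ pwW 4 (w5 1)

/-- The check of one pair. -/
def pairOK (i j k : ℕ) (g : List ℕ) : Bool :=
  eqB (eW3 i ++ eW3 j) (eW3 j ++ eW3 i) &&
    (if k = 0 then eqB (g ++ eW3 i) (eW3 j ++ g) && eqB (g ++ eW3 j) (eW3 i ++ g)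
     else if k = 1 then eqB (g ++ eW3 i) (eW3 i ++ g) && eqB (g ++ eW3 j) (pwW 2 (eW3 j) ++ g)
     else eqB (g ++ eW3 i) (pwW 2 (eW3 i) ++ g) && eqB (g ++ eW3 j) (eW3 j ++ g))

theorem orders3 : ((List.range 7).all fun i => eqB (pwW 3 (w3 i)) []) = true := by decide +kernel

theorem pairs_ok : ((List.range 5).all fun i => (List.range 5).all fun j => !(decide (i < j)) ||
    (List.range cPairs.length).any fun k => (cPairs.getD k (0, 0, 0)).1 == i &&
      (cPairs.getD k (0, 0, 0)).2.1 == j && pairOK i j (cPairs.getD k (0, 0, 0)).2.2 (cPairsWit.getD k [])) = true := by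
  decide +kernel

theorem top_ok : eqB (w3 0 ++ w3 1) (w3 1 ++ w3 0) = true ∧ eqB (cThreeT ++ cThreeT) [] = true ∧
    eqB (cThreeT ++ w3 0) (w3 0 ++ cThreeT) = true ∧ eqB (cThreeT ++ w3 1) (w3 1 ++ cThreeT) = true ∧
    eqB (cThreeSwap ++ w3 0) (w3 1 ++ cThreeSwap) = true ∧ eqB (cThreeSwap ++ w3 1) (w3 0 ++ cThreeSwap) = true ∧
    ((List.range 5).all fun i => eqB (cThreeT ++ eW3 i) (pwW 2 (eW3 i) ++ cThreeT)) = true := by decide +kernel

theorem norm_ok : ((List.range 10).all fun k => ((cNorm.getD k []).all fun c => Nat.blt c 5) &&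
    eqB (w3 (k / 5) ++ eW3 (k % 5)) (flat3 (cNorm.getD k []) ++ w3 (k / 5))) = true := by decide +kernel

/-- The point whose orbit shows that a generator is new. -/
def tailX3 (l : ℕ) : ℕ := (cThreeTail.getD l (0, 0)).1

/-- That orbit. -/
def tailS3 (l : ℕ) : ℕ := (cThreeTail.getD l (0, 0)).2

theorem tail3_ok : ((List.range 7).all fun l => lOK (w3 l) && Nat.blt (tailX3 l) 552 &&
    bit (tailS3 l) (tailX3 l) && !(bit (tailS3 l) (act (w3 l) (tailX3 l))) &&
    (List.range 7).all fun j => !(decide (l < j)) || stableGo (tailS3 l) (w3 j) 552) = true := by decide +kernel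

theorem five_ok : eqB (pwW 5 (w5 0)) [] = true ∧ eqB (pwW 5 (w5 1)) [] = true ∧ eqB (pwW 5 cW) [] = true ∧
    neB cW [] = true ∧ eqB (w5 0 ++ cW) (cW ++ w5 0) = true ∧ eqB (w5 1 ++ cW) (cW ++ w5 1) = true ∧
    eqB (w5 2 ++ w5 0) (pwW 4 (w5 0) ++ w5 2) = true ∧ eqB (w5 2 ++ w5 1) (pwW 4 (w5 1) ++ w5 2) = true ∧
    eqB (w5 2 ++ cW) (cW ++ w5 2) = true := by decide +kernel

end Cfsg.Agent.FGS2.Co3
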