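import Cfsg.Agent.FGS4.SchurSylow.Lifts

/-!
A Sylow subgroup of odd order which is an abelian subgroup inverted by an element, extended by two commuting
elements centralized by it and interchanged by another element.
-/

set_option autoImplicit false

namespace Cfsg.Agent.FGS2.Co3

open Subgroup Cfsg.Agent.FGS4.SchurSylow
open scoped commutatorElement

universe u v

variable {Γ : Type u} [Group Γ] {Q : Type v} [Group Q] {σ : Γ →* Q}

/-- Two commuting elements have commuting lifts if some element reverses their commutator. -/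
theorem lifts_comm (hσ : Cfsg.IsStemExtension σ) {p : ℕ} [Fact p.Prime] (hp2 : p ≠ 2) {a b g : Q}
    (hap : a ^ p = 1) (hab : a * b = b * a)
    (hg : (g * a * g⁻¹ = b ∧ g * b * g⁻¹ = a) ∨ (g * a * g⁻¹ = a ∧ g * b * g⁻¹ = b⁻¹) ∨
      (g * a * g⁻¹ = a⁻¹ ∧ g * b * g⁻¹ = b))
    {X Y : Γ} (hX : σ X = a) (hY : σ Y = b) : X * Y = Y * X := by
  have hc : ∀ k ∈ σ.ker, ∀ y : Γ, y * k = k * y := fun k hk => mem_center_iff.1 (hσ.2.1 hk)
  obtain ⟨G, rfl⟩ := hσ.1 g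
  have hD : ⁅X, Y⁆ ∈ σ.ker := by
    rw [MonoidHom.mem_ker, map_commutatorElement, hX, hY, commutatorElement_eq_one_iff_mul_comm, hab]
  set D := ⁅X, Y⁆ with hDd
  have hXY : X * Y * X⁻¹ = D * Y := by rw [hDd, commutatorElement_def]; group
  have hpow : ∀ n : ℕ, X ^ n * Y * (X ^ n)⁻¹ = D ^ n * Y := by
    intro n
    induction n with
    | zero => simp
    | succ n ih =>
      calc X ^ (n + 1) * Y * (X ^ (n + 1))⁻¹ = X * (X ^ n * Y * (X ^ n)⁻¹) * X⁻¹ := by group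
        _ = X * D ^ n * Y * X⁻¹ := by rw [ih]; group
        _ = D ^ n * (X * Y * X⁻¹) := by rw [(Commute.pow_right (hc D hD X) n).eq]; group
        _ = D ^ (n + 1) * Y := by rw [hXY, pow_succ]; group
  have hDp : D ^ p = 1 := by
    have hk : X ^ p ∈ σ.ker := by rw [MonoidHom.mem_ker, map_pow, hX, hap]
    have := hpow p
    rw [← hc _ hk Y, mul_inv_cancel_right] at this
    exact mul_eq_right.1 this.symm
  have conjk : ∀ {Z : Γ} {q : Q}, σ G * σ Z * (σ G)⁻¹ = q → ∀ {W : Γ}, σ W = q →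
      ∃ k ∈ σ.ker, G * Z * G⁻¹ = W * k := by
    intro Z q h W hW
    refine ⟨W⁻¹ * (G * Z * G⁻¹), ?_, (mul_inv_cancel_left _ _).symm⟩
    rw [MonoidHom.mem_ker, map_mul, map_inv, map_mul, map_mul, map_inv, h, hW, inv_mul_cancel]
  have cancel : ∀ {A B k l : Γ}, k ∈ σ.ker → l ∈ σ.ker → ⁅A * k, B * l⁆ = ⁅A, B⁆ := by
    intro A B k l hk hl
    have i1 : ∀ y : Γ, k * y * k⁻¹ = y := fun y => by rw [← hc _ hk y, mul_inv_cancel_right]
    have i2 : ∀ y : Γ, l * y * l⁻¹ = y := fun y => by rw [← hc _ hl y, mul_inv_cancel_right]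
    calc ⁅A * k, B * l⁆ = A * (k * (B * l) * k⁻¹) * A⁻¹ * l⁻¹ * B⁻¹ := by rw [commutatorElement_def]; group
      _ = A * (B * l) * A⁻¹ * l⁻¹ * B⁻¹ := by rw [i1]
      _ = A * B * (l * A⁻¹ * l⁻¹) * B⁻¹ := by group
      _ = ⁅A, B⁆ := by rw [i2, commutatorElement_def]
  have hGD : G * D * G⁻¹ = D := by rw [hc D hD G, mul_inv_cancel_right]
  have hinv : D = D⁻¹ := by
    have h2 : G * D * G⁻¹ = ⁅G * X * G⁻¹, G * Y * G⁻¹⁆ := conjugate_commutatorElement X Y G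
    rw [hGD] at h2
    rw [← hX, ← hY] at hg
    rcases hg with ⟨e1, e2⟩ | ⟨e1, e2⟩ | ⟨e1, e2⟩
    · obtain ⟨k, hk, f1⟩ := conjk e1 rfl
      obtain ⟨l, hl, f2⟩ := conjk e2 rfl
      rw [f1, f2, cancel hk hl, ← commutatorElement_inv, ← hDd] at h2
      exact h2
    · obtain ⟨k, hk, f1⟩ := conjk e1 rfl
      obtain ⟨l, hl, f2⟩ := conjk e2 (map_inv σ Y)
      rw [f1, f2, cancel hk hl] at h2
      have : ⁅X, Y⁻¹⁆ = D⁻¹ := by
        rw [show ⁅X, Y⁻¹⁆ = Y⁻¹ * D⁻¹ * Y by rw [hDd, commutatorElement_def, commutatorElement_def]; group,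
          hc _ (inv_mem hD) Y⁻¹, inv_mul_cancel_right]
      rwa [this] at h2
    · obtain ⟨k, hk, f1⟩ := conjk e1 (map_inv σ X)
      obtain ⟨l, hl, f2⟩ := conjk e2 rfl
      rw [f1, f2, cancel hk hl] at h2
      have : ⁅X⁻¹, Y⁆ = D⁻¹ := by
        rw [show ⁅X⁻¹, Y⁆ = X⁻¹ * D⁻¹ * X by rw [hDd, commutatorElement_def, commutatorElement_def]; group,
          hc _ (inv_mem hD) X⁻¹, inv_mul_cancel_right]
      rwa [this] at h2
  have hD2 : D ^ 2 = 1 := by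
    rw [pow_two]
    nth_rw 1 [hinv]
    exact inv_mul_cancel D
  have hD1 : D = 1 := by
    rw [← orderOf_eq_one_iff]
    exact Nat.eq_one_of_dvd_coprimes ((Nat.coprime_primes Nat.prime_two (Fact.out : p.Prime)).2 (Ne.symm hp2))
      (orderOf_dvd_of_pow_eq_one hD2) (orderOf_dvd_of_pow_eq_one hDp)
  exact commutatorElement_eq_one_iff_mul_comm.1 hD1

theorem stem_false_split [Finite Γ] (hσ : Cfsg.IsStemExtension σ) {p : ℕ} [Fact p.Prime] (hp2 : p ≠ 2)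
    (S : Sylow p Q) {E : Set Q} {u v t g : Q} (hS : (S : Subgroup Q) = closure (insert u (insert v E)))
    (hE : ∀ e ∈ E, e ^ p = 1)
    (hpair : ∀ e ∈ E, ∀ f ∈ E, ∀ X Y : Γ, σ X = e → σ Y = f → X * Y = Y * X)
    (ht : ∀ e ∈ E, t * e * t⁻¹ = e⁻¹) (htt : t * t = 1) (htu : t * u = u * t) (htv : t * v = v * t)
    (hup : u ^ p = 1) (huv : u * v = v * u) (hg1 : g * u * g⁻¹ = v) (hg2 : g * v * g⁻¹ = u)
    (hnu : ∀ e ∈ E, u * e * u⁻¹ ∈ closure E) (hnv : ∀ e ∈ E, v * e * v⁻¹ ∈ closure E)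
    {z : Γ} (hz : z ∈ σ.ker) (hzo : orderOf z = p) : False := by
  refine stem_false hσ S hz hzo fun x hxk hx => ?_
  obtain ⟨U, rfl⟩ := hσ.1 u
  obtain ⟨V, rfl⟩ := hσ.1 v
  obtain ⟨T, rfl⟩ := hσ.1 t
  have hc : ∀ k ∈ σ.ker, ∀ y : Γ, y * k = k * y := fun k hk => mem_center_iff.1 (hσ.2.1 hk)
  have hUV : U * V = V * U := lifts_comm hσ hp2 hup huv (Or.inl ⟨hg1, hg2⟩) rfl rfl
  set H0 := closure (σ ⁻¹' E ∪ (σ.ker : Set Γ)) with hH0
  have hH0c : ∀ a ∈ H0, ∀ b ∈ H0, a * b = b * a := by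
    have hc' := Subgroup.isMulCommutative_closure (k := σ ⁻¹' E ∪ (σ.ker : Set Γ)) (by
      rintro a (ha | ha) b (hb | hb)
      · exact hpair _ ha _ hb a b rfl rfl
      · exact hc b hb a
      · exact (hc a ha b).symm
      · exact hc b hb a)
    exact fun a ha b hb => congrArg Subtype.val (hc'.is_comm.comm ⟨a, ha⟩ ⟨b, hb⟩)
  have hkH : σ.ker ≤ H0 := fun k hk => subset_closure (Or.inr hk)
  have hcl : ∀ y : Γ, σ y ∈ closure E → y ∈ H0 := by
    intro y hy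
    have hle : closure E ≤ H0.map σ := by
      rw [closure_le]
      intro e he
      obtain ⟨X, rfl⟩ := hσ.1 e
      exact ⟨X, subset_closure (Or.inl he), rfl⟩
    obtain ⟨y', hy', e⟩ := hle hy
    have : y'⁻¹ * y ∈ σ.ker := by rw [MonoidHom.mem_ker, map_mul, map_inv, e, inv_mul_cancel]
    simpa using mul_mem hy' (hkH this)
  have hTT : T * T ∈ σ.ker := by rw [MonoidHom.mem_ker, map_mul, htt]
  -- the elements of exponent `p` inverted by `T`
  let N : Subgroup Γ :=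
    { carrier := {y | y ∈ H0 ∧ y ^ p = 1 ∧ T * y * T⁻¹ = y⁻¹}
      one_mem' := ⟨one_mem _, one_pow _, by simp⟩
      mul_mem' := fun {a b} ha hb => ⟨mul_mem ha.1 hb.1,
        by rw [(show Commute a b from hH0c a ha.1 b hb.1).mul_pow, ha.2.1, hb.2.1, one_mul],
        by rw [show T * (a * b) * T⁻¹ = T * a * T⁻¹ * (T * b * T⁻¹) by group, ha.2.2, hb.2.2, mul_inv_rev,
          hH0c _ (inv_mem ha.1) _ (inv_mem hb.1)]⟩
      inv_mem' := fun {a} ha => ⟨inv_mem ha.1, by rw [inv_pow, ha.2.1, inv_one],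
        by rw [show T * a⁻¹ * T⁻¹ = (T * a * T⁻¹)⁻¹ by group, ha.2.2]⟩ }
  have hxN : x ∈ N → x = 1 := fun h => by
    have h2 : x ^ 2 = 1 := by
      rw [pow_two]
      nth_rw 1 [← inv_inv x]
      rw [← h.2.2, hc x hxk T, mul_inv_cancel_right, inv_mul_cancel]
    rw [← orderOf_eq_one_iff]
    exact Nat.eq_one_of_dvd_coprimes ((Nat.coprime_primes Nat.prime_two (Fact.out : p.Prime)).2 (Ne.symm hp2))
      (orderOf_dvd_of_pow_eq_one h2) (orderOf_dvd_of_pow_eq_one h.2.1)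
  refine hxN ?_
  -- an element centralized by `T` modulo the kernel and normalizing
  have step : ∀ A : Γ, σ T * σ A = σ A * σ T → (∀ e ∈ E, σ A * e * (σ A)⁻¹ ∈ closure E) →
      (∀ y ∈ H0, A * y * A⁻¹ ∈ H0) ∧ (∀ y ∈ N, A * y * A⁻¹ ∈ N) ∧ ∀ X ∈ σ ⁻¹' E, ⁅A, X⁆ ∈ N := by
    intro A hTA hAE
    have hH : ∀ y ∈ H0, A * y * A⁻¹ ∈ H0 := by
      have hle : H0 ≤ H0.comap (MulAut.conj A).toMonoidHom := by
        rw [hH0, closure_le]
        rintro y (hy | hy)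
        · show A * y * A⁻¹ ∈ H0
          exact hcl _ (by rw [map_mul, map_mul, map_inv]; exact hAE _ hy)
        · show A * y * A⁻¹ ∈ H0
          rw [hc y hy A, mul_inv_cancel_right]; exact hkH hy
      exact fun y hy => hle hy
    obtain ⟨k, hk, hAT⟩ : ∃ k ∈ σ.ker, T * A * T⁻¹ = A * k := ⟨A⁻¹ * (T * A * T⁻¹), by
      rw [MonoidHom.mem_ker, map_mul, map_mul, map_mul, map_inv, map_inv, hTA, mul_inv_cancel_right,
        inv_mul_cancel], (mul_inv_cancel_left _ _).symm⟩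
    have hTconj : ∀ y : Γ, T * (A * y * A⁻¹) * T⁻¹ = A * (T * y * T⁻¹) * A⁻¹ := by
      intro y
      calc T * (A * y * A⁻¹) * T⁻¹ = T * A * T⁻¹ * (T * y * T⁻¹) * (T * A * T⁻¹)⁻¹ := by group
        _ = A * (k * (T * y * T⁻¹) * k⁻¹) * A⁻¹ := by rw [hAT]; group
        _ = A * (T * y * T⁻¹) * A⁻¹ := by rw [← hc k hk, mul_inv_cancel_right]
    refine ⟨hH, fun y hy => ⟨hH y hy.1, by rw [conj_pow, hy.2.1, mul_one, mul_inv_cancel], ?_⟩, ?_⟩
    · rw [hTconj, hy.2.2]; group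
    intro X hX
    have hXH : X ∈ H0 := subset_closure (Or.inl hX)
    have hXi := inv_mem hXH
    have hAX := hH X hXH
    rw [commutatorElement_def]
    refine ⟨mul_mem hAX hXi, ?_, ?_⟩
    · have hXp : X ^ p ∈ σ.ker := by rw [MonoidHom.mem_ker, map_pow]; exact hE _ hX
      rw [(show Commute (A * X * A⁻¹) X⁻¹ from hH0c _ hAX _ hXi).mul_pow, conj_pow, hc _ hXp A,
        mul_inv_cancel_right, inv_pow, mul_inv_cancel]
    · obtain ⟨l, hl, hTX⟩ : ∃ l ∈ σ.ker, T * X * T⁻¹ = X⁻¹ * l := ⟨X * (T * X * T⁻¹), by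
        rw [MonoidHom.mem_ker, map_mul, map_mul, map_mul, map_inv, ht _ hX, mul_inv_cancel],
        (inv_mul_cancel_left _ _).symm⟩
      calc T * (A * X * A⁻¹ * X⁻¹) * T⁻¹ = T * (A * X * A⁻¹) * T⁻¹ * (T * X * T⁻¹)⁻¹ := by group
        _ = A * (X⁻¹ * l) * A⁻¹ * (X⁻¹ * l)⁻¹ := by rw [hTconj, hTX]
        _ = A * X⁻¹ * (l * A⁻¹ * l⁻¹) * X := by group
        _ = A * X⁻¹ * A⁻¹ * X := by rw [← hc l hl, mul_inv_cancel_right]
        _ = (A * X * A⁻¹)⁻¹ * X := by group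
        _ = X * (A * X * A⁻¹)⁻¹ := hH0c _ (inv_mem hAX) _ hXH
        _ = (A * X * A⁻¹ * X⁻¹)⁻¹ := by group
  obtain ⟨-, hUN, hUX⟩ := step U htu hnu
  obtain ⟨-, hVN, hVX⟩ := step V htv hnv
  set gs : Set Γ := insert U (insert V (σ ⁻¹' E ∪ (σ.ker : Set Γ))) with hgs
  have hle : (S : Subgroup Q).comap σ ≤ closure gs := by
    intro y hy
    rw [Subgroup.mem_comap, hS] at hy
    have hm : closure (insert (σ U) (insert (σ V) E)) ≤ (closure gs).map σ := by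
      rw [closure_le]
      rintro q (rfl | rfl | hq)
      · exact ⟨U, subset_closure (by simp [hgs]), rfl⟩
      · exact ⟨V, subset_closure (by simp [hgs]), rfl⟩
      · obtain ⟨X, rfl⟩ := hσ.1 q
        exact ⟨X, subset_closure (by simp [hgs, hq]), rfl⟩
    obtain ⟨y', hy', e⟩ := hm hy
    have : y'⁻¹ * y ∈ σ.ker := by rw [MonoidHom.mem_ker, map_mul, map_inv, e, inv_mul_cancel]
    simpa using mul_mem hy' (subset_closure (show y'⁻¹ * y ∈ gs by simp [hgs, this]))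
  have hnorm : ∀ a ∈ gs, ∀ y ∈ N, a * y * a⁻¹ ∈ N := by
    rintro a (rfl | rfl | ha) y hy
    · exact hUN y hy
    · exact hVN y hy
    · rwa [hH0c a (subset_closure ha) y hy.1, mul_inv_cancel_right]
  have hbase : ∀ a ∈ gs, ∀ b ∈ gs, ⁅a, b⁆ ∈ N := by
    have one : ∀ {a b : Γ}, a * b = b * a → ⁅a, b⁆ ∈ N := fun h => by
      rw [commutatorElement_eq_one_iff_mul_comm.2 h]; exact one_mem _
    have flip : ∀ {a b : Γ}, ⁅a, b⁆ ∈ N → ⁅b, a⁆ ∈ N := fun h => by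
      rw [← commutatorElement_inv]; exact inv_mem h
    have two : ∀ (A : Γ), (∀ X ∈ σ ⁻¹' E, ⁅A, X⁆ ∈ N) → ∀ X ∈ σ ⁻¹' E ∪ (σ.ker : Set Γ), ⁅A, X⁆ ∈ N :=
      fun A hA X hX => hX.elim (hA X) fun hk => one (hc X hk A)
    rintro a (rfl | rfl | ha) b (rfl | rfl | hb)
    · exact one rfl
    · exact one hUV
    · exact two _ hUX b hb
    · exact one hUV.symm
    · exact one rfl
    · exact two _ hVX b hb
    · exact flip (two _ hUX a ha)
    · exact flip (two _ hVX a ha)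
    · exact one (hH0c a (subset_closure ha) b (subset_closure hb))
  haveI : Finite Q := Finite.of_surjective σ hσ.1
  have hgn : gs ⊆ (normalizer (N : Set Γ) : Set Γ) := fun a ha =>
    mem_normalizer_fintype fun y hy => hnorm a ha y hy
  set K := normalizer (N : Set Γ) with hK
  let q := QuotientGroup.mk' (N.subgroupOf K)
  let gq : Set (K ⧸ N.subgroupOf K) := q '' {a : K | (a : Γ) ∈ gs}
  have hqc : ∀ a ∈ gq, ∀ b ∈ gq, a * b = b * a := by
    rintro _ ⟨a, ha, rfl⟩ _ ⟨b, hb, rfl⟩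
    rw [← commutatorElement_eq_one_iff_mul_comm, ← map_commutatorElement, QuotientGroup.mk'_apply,
      QuotientGroup.eq_one_iff, mem_subgroupOf]
    exact hbase _ ha _ hb
  have hqc' := Subgroup.isMulCommutative_closure (k := gq) hqc
  have hcomm : ∀ a ∈ closure gs, ∀ b ∈ closure gs, ⁅a, b⁆ ∈ N := by
    intro a ha b hb
    have mem : ∀ y ∈ closure gs, ∃ hy : y ∈ K, q ⟨y, hy⟩ ∈ closure gq := by
      intro y hy
      induction hy using Subgroup.closure_induction with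
      | mem w hw => exact ⟨hgn hw, subset_closure ⟨⟨w, hgn hw⟩, hw, rfl⟩⟩
      | one => exact ⟨one_mem _, by rw [show (⟨1, one_mem _⟩ : K) = 1 from rfl, map_one]; exact one_mem _⟩
      | mul w w' _ _ h h' =>
        obtain ⟨hw, h⟩ := h
        obtain ⟨hw', h'⟩ := h'
        exact ⟨mul_mem hw hw', by
          rw [show (⟨w * w', mul_mem hw hw'⟩ : K) = ⟨w, hw⟩ * ⟨w', hw'⟩ from rfl, map_mul]; exact mul_mem h h'⟩
      | inv w _ h =>
        obtain ⟨hw, h⟩ := h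
        exact ⟨inv_mem hw, by rw [show (⟨w⁻¹, inv_mem hw⟩ : K) = ⟨w, hw⟩⁻¹ from rfl, map_inv]; exact inv_mem h⟩
    obtain ⟨haK, ha'⟩ := mem a ha
    obtain ⟨hbK, hb'⟩ := mem b hb
    have h1 : q ⁅(⟨a, haK⟩ : K), ⟨b, hbK⟩⁆ = 1 := by
      rw [map_commutatorElement, commutatorElement_eq_one_iff_mul_comm]
      exact congrArg Subtype.val (hqc'.is_comm.comm ⟨_, ha'⟩ ⟨_, hb'⟩)
    rwa [QuotientGroup.mk'_apply, QuotientGroup.eq_one_iff, mem_subgroupOf] at h1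
  exact Subgroup.commutator_le.2 (fun a ha b hb => hcomm a (hle ha) b (hle hb)) hx

end Cfsg.Agent.FGS2.Co3
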