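import Cfsg.Agent.FGS2.Co3.Two
import Cfsg.Agent.FGS2.Co3.OddChecks
import Cfsg.Agent.FGS2.Co3.Split
import Cfsg.Agent.FGS2.SchurTools

/-! The Schur multiplier of the third Conway group is trivial. -/

set_option autoImplicit false
set_option maxRecDepth 100000

namespace Cfsg.Agent.FGS2.Co3

open Subgroup Cfsg.Agent.FGS4.SchurSylow
open scoped commutatorElement
open Cfsg.Agent.Screen.CosetEnum (bit)

universe u

theorem kE_pwW (i : ℕ) (w : List ℕ) : kE (pwW i w) = kE w ^ i := kE_rep w i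

theorem inv_eq_pow {x : Q} {p : ℕ} (hp : 0 < p) (h : x ^ p = 1) : x⁻¹ = x ^ (p - 1) :=
  inv_eq_of_mul_eq_one_right (by rw [← pow_succ', Nat.sub_add_cancel hp, h])

theorem pow3 (i : ℕ) (hi : i < 7) : kE (w3 i) ^ 3 = 1 := by
  rw [← kE_pwW]; exact kE_one (List.all_eq_true.1 orders3 i (List.mem_range.2 hi))

/-- The elementary abelian part. -/
def eSet : Set Q := {x | ∃ i, i < 5 ∧ x = kE (eW3 i)}

theorem eSet_comm : ∀ a ∈ eSet, ∀ b ∈ eSet, a * b = b * a := by
  rintro _ ⟨i, hi, rfl⟩ _ ⟨j, hj, rfl⟩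
  have key : ∀ i j, i < j → j < 5 → kE (eW3 i) * kE (eW3 j) = kE (eW3 j) * kE (eW3 i) := by
    intro i j hij hj
    have h := List.all_eq_true.1 (List.all_eq_true.1 pairs_ok i (List.mem_range.2 (by omega))) j (List.mem_range.2 hj)
    simp only [decide_eq_true hij, Bool.not_true, Bool.false_or, List.any_eq_true, Bool.and_eq_true, pairOK] at h
    obtain ⟨k, -, -, hc, -⟩ := h
    rw [← kE_append, ← kE_append]; exact kE_eq hc
  rcases lt_trichotomy i j with h | rfl | h
  · exact key i j h hj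
  · rfl
  · exact (key j i h hi).symm

theorem eSet_lifts {Γ : Type u} [Group Γ] {σ : Γ →* Q} (hσ : Cfsg.IsStemExtension σ) :
    ∀ e ∈ eSet, ∀ f ∈ eSet, ∀ X Y : Γ, σ X = e → σ Y = f → X * Y = Y * X := by
  haveI : Fact (Nat.Prime 3) := ⟨Nat.prime_three⟩
  rintro _ ⟨i, hi, rfl⟩ _ ⟨j, hj, rfl⟩ X Y hX hY
  have key : ∀ i j, i < j → j < 5 → ∀ X Y : Γ, σ X = kE (eW3 i) → σ Y = kE (eW3 j) → X * Y = Y * X := by
    intro i j hij hj X Y hX hY
    have h := List.all_eq_true.1 (List.all_eq_true.1 pairs_ok i (List.mem_range.2 (by omega))) j (List.mem_range.2 hj)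
    simp only [decide_eq_true hij, Bool.not_true, Bool.false_or, List.any_eq_true, Bool.and_eq_true, pairOK] at h
    obtain ⟨k, -, -, -, hk⟩ := h
    have inv3 : ∀ l, l < 5 → (kE (eW3 l))⁻¹ = kE (pwW 2 (eW3 l)) := fun l hl => by
      rw [kE_pwW]; exact inv_eq_pow (by norm_num) (pow3 (l + 2) (by omega))
    refine lifts_comm hσ (p := 3) (by norm_num) (show kE (eW3 i) ^ 3 = 1 from pow3 (i + 2) (by omega))
      (eSet_comm _ ⟨i, by omega, rfl⟩ _ ⟨j, hj, rfl⟩) (g := kE (cPairsWit.getD k [])) ?_ hX hY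
    split_ifs at hk with k0 k1 <;> simp only [Bool.and_eq_true] at hk <;> obtain ⟨h1, h2⟩ := hk
    · exact Or.inl ⟨mul_inv_eq_iff_eq_mul.2 (by rw [← kE_append, ← kE_append]; exact kE_eq h1),
        mul_inv_eq_iff_eq_mul.2 (by rw [← kE_append, ← kE_append]; exact kE_eq h2)⟩
    · exact Or.inr (Or.inl ⟨mul_inv_eq_iff_eq_mul.2 (by rw [← kE_append, ← kE_append]; exact kE_eq h1),
        mul_inv_eq_iff_eq_mul.2 (by rw [inv3 j hj, ← kE_append, ← kE_append]; exact kE_eq h2)⟩)
    · exact Or.inr (Or.inr ⟨mul_inv_eq_iff_eq_mul.2 (by rw [inv3 i (by omega), ← kE_append, ← kE_append]; exact kE_eq h1),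
        mul_inv_eq_iff_eq_mul.2 (by rw [← kE_append, ← kE_append]; exact kE_eq h2)⟩)
  rcases lt_trichotomy i j with h | rfl | h
  · exact key i j h hj X Y hX hY
  · obtain ⟨k, hk, rfl⟩ : ∃ k ∈ σ.ker, Y = X * k :=
      ⟨X⁻¹ * Y, by rw [MonoidHom.mem_ker, map_mul, map_inv, hX, hY, inv_mul_cancel], (mul_inv_cancel_left _ _).symm⟩
    rw [mul_assoc, ← mem_center_iff.1 (hσ.2.1 hk) X]
  · exact (key j i h hi Y X hY hX).symm

theorem norm_mem (k : ℕ) (hk : k < 10) :
    kE (w3 (k / 5)) * kE (eW3 (k % 5)) * (kE (w3 (k / 5)))⁻¹ ∈ closure eSet := by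
  have h := List.all_eq_true.1 norm_ok k (List.mem_range.2 hk)
  simp only [Bool.and_eq_true, List.all_eq_true, Nat.blt_eq] at h
  obtain ⟨hs, he⟩ := h
  rw [show kE (w3 (k / 5)) * kE (eW3 (k % 5)) * (kE (w3 (k / 5)))⁻¹ = kE (flat3 (cNorm.getD k [])) from
    mul_inv_eq_iff_eq_mul.2 (by rw [← kE_append, ← kE_append]; exact kE_eq he)]
  clear he
  generalize cNorm.getD k [] = w at hs
  induction w with
  | nil => exact one_mem _
  | cons c w ih =>
    rw [show flat3 (c :: w) = eW3 c ++ flat3 w from rfl, kE_append]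
    exact mul_mem (subset_closure ⟨c, hs c List.mem_cons_self, rfl⟩) (ih fun x hx => hs x (List.mem_cons_of_mem _ hx))

theorem three_sylow3 : ∃ S : Sylow 3 Q,
    (S : Subgroup Q) = closure (insert (kE (w3 0)) (insert (kE (w3 1)) eSet)) := by
  haveI : Fact (Nat.Prime 3) := ⟨Nat.prime_three⟩
  set A := closure eSet with hA
  set B := closure ({kE (w3 0), kE (w3 1)} : Set Q) with hB
  set T := closure (insert (kE (w3 0)) (insert (kE (w3 1)) eSet)) with hT
  have huv : kE (w3 0) * kE (w3 1) = kE (w3 1) * kE (w3 0) := by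
    rw [← kE_append, ← kE_append]; exact kE_eq top_ok.1
  have abel : ∀ (s : Set Q), (∀ a ∈ s, ∀ b ∈ s, a * b = b * a) → (∀ a ∈ s, a ^ 3 = 1) →
      IsPGroup 3 (closure s) := by
    intro s hc ho
    have hc' := Subgroup.isMulCommutative_closure (k := s) hc
    rintro ⟨x, hx⟩
    refine ⟨1, Subtype.ext ?_⟩
    show x ^ (3 ^ 1) = 1
    rw [pow_one]
    induction hx using Subgroup.closure_induction with
    | mem a ha => exact ho a ha
    | one => exact one_pow 3
    | mul a b ha hb iha ihb =>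
      rw [(show Commute a b from congrArg Subtype.val (hc'.is_comm.comm ⟨a, ha⟩ ⟨b, hb⟩)).mul_pow, iha, ihb, one_mul]
    | inv a ha iha => rw [inv_pow, iha, inv_one]
  have hAp : IsPGroup 3 A := abel _ eSet_comm (by rintro _ ⟨i, hi, rfl⟩; exact pow3 (i + 2) (by omega))
  have hBp : IsPGroup 3 B := abel _ (by rintro a (rfl | rfl) b (rfl | rfl) <;> first | rfl | exact huv | exact huv.symm)
    (by rintro a (rfl | rfl) <;> exact pow3 _ (by norm_num))
  have hn : B ≤ normalizer (A : Set Q) := by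
    rw [hB, closure_le]
    have key : ∀ a, a < 2 → ∀ y ∈ A, kE (w3 a) * y * (kE (w3 a))⁻¹ ∈ A := by
      intro a ha
      have hle : A ≤ A.comap (MulAut.conj (kE (w3 a))).toMonoidHom := by
        rw [hA, closure_le]
        rintro _ ⟨i, hi, rfl⟩
        show kE (w3 a) * kE (eW3 i) * (kE (w3 a))⁻¹ ∈ closure eSet
        have := norm_mem (5 * a + i) (by omega)
        rwa [show (5 * a + i) / 5 = a by omega, show (5 * a + i) % 5 = i by omega] at this
      exact fun y hy => hle hy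
    rintro x (rfl | rfl)
    · exact mem_normalizer_fintype (key 0 (by norm_num))
    · exact mem_normalizer_fintype (key 1 (by norm_num))
  have hTp : IsPGroup 3 T := (hAp.to_sup_of_normal_left' hBp hn).to_le (by
    rw [hT, closure_le]
    rintro x (rfl | rfl | hx)
    · exact mem_sup_right (subset_closure (by simp))
    · exact mem_sup_right (subset_closure (by simp))
    · exact mem_sup_left (subset_closure hx))
  -- the chain of seven steps
  have mT : ∀ j, j < 7 → kE (w3 j) ∈ T := by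
    intro j hj
    refine subset_closure ?_
    match j with
    | 0 => exact Or.inl rfl
    | 1 => exact Or.inr (Or.inl rfl)
    | i + 2 => exact Or.inr (Or.inr ⟨i, by omega, rfl⟩)
  let C : ℕ → Subgroup Q := fun l => closure {g : Q | ∃ w ∈ ((List.range 7).filter fun j => decide (l ≤ j)).map w3, kE w = g}
  have hCT : ∀ l, C l ≤ T := fun l => by
    show Subgroup.closure _ ≤ T
    rw [closure_le]
    rintro g ⟨w, hw, rfl⟩
    obtain ⟨j, hj, rfl⟩ := List.mem_map.1 hw
    exact mT j (List.mem_range.1 (List.mem_filter.1 hj).1)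
  have step : ∀ k, k ≤ 7 → 3 ^ k ≤ Nat.card (C (7 - k)) := by
    intro k
    induction k with
    | zero => intro _; rw [pow_zero]; exact Nat.card_pos
    | succ k ih =>
      intro hk
      have hi := ih (by omega)
      set l := 7 - (k + 1) with hl
      rw [show 7 - k = l + 1 by omega] at hi
      have hle : C (l + 1) ≤ C l := closure_mono fun g hg => by
        obtain ⟨w, hw, e⟩ := hg
        obtain ⟨j, hj, rfl⟩ := List.mem_map.1 hw
        obtain ⟨hj1, hj2⟩ := List.mem_filter.1 hj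
        exact ⟨_, List.mem_map_of_mem (List.mem_filter.2 ⟨hj1, decide_eq_true (by simp at hj2; omega)⟩), e⟩
      have h := List.all_eq_true.1 tail3_ok l (List.mem_range.2 (by omega))
      simp only [Bool.and_eq_true, Bool.not_eq_true', Nat.blt_eq] at h
      obtain ⟨⟨⟨⟨he, hx⟩, hS⟩, hout⟩, hst⟩ := h
      have hno : kE (w3 l) ∉ C (l + 1) := fun hm => by
        refine not_mem_of_stable (S := tailS3 l) (x := tailX3 l) ?_ he hx hS hout hm
        intro w hw
        obtain ⟨j, hj, rfl⟩ := List.mem_map.1 hw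
        obtain ⟨hj1, hj2⟩ := List.mem_filter.1 hj
        have hA' := List.all_eq_true.1 tail3_ok j hj1
        simp only [Bool.and_eq_true] at hA'
        have hB' := List.all_eq_true.1 hst j hj1
        rw [decide_eq_true (show l < j by simp at hj2; omega)] at hB'
        exact ⟨hA'.1.1.1.1, by simpa using hB'⟩
      have hlt : Nat.card (C (l + 1)) < Nat.card (C l) :=
        lt_of_le_of_ne (card_le_of_le hle) fun e => hno ((eq_of_le_of_card_ge hle e.ge).symm ▸
          subset_closure ⟨_, List.mem_map_of_mem (List.mem_filter.2 ⟨List.mem_range.2 (by omega), decide_eq_true le_rfl⟩), rfl⟩)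
      obtain ⟨a, ha⟩ := IsPGroup.iff_card.1 (hTp.to_le (hCT (l + 1)))
      obtain ⟨b, hb⟩ := IsPGroup.iff_card.1 (hTp.to_le (hCT l))
      rw [ha] at hi hlt
      rw [hb] at hlt ⊢
      have h1 := (Nat.pow_le_pow_iff_right (by norm_num)).1 hi
      have h2 := (Nat.pow_lt_pow_iff_right (by norm_num)).1 hlt
      exact Nat.pow_le_pow_right (by norm_num) (by omega)
  obtain ⟨S, hS⟩ := hTp.exists_le_sylow
  refine ⟨S, (eq_of_le_of_card_ge hS ?_).symm⟩
  rw [J2.SchurTwoClass.sylow_card card_Co3 Nat.prime_three (k := 7) (by norm_num) (by norm_num) S]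
  exact (step 7 le_rfl).trans (card_le_of_le (hCT 0))

theorem three_false {Γ : Type u} [Group Γ] [Finite Γ] {σ : Γ →* Q} (hσ : Cfsg.IsStemExtension σ) {z : Γ}
    (hz : z ∈ σ.ker) (hzo : orderOf z = 3) : False := by
  haveI : Fact (Nat.Prime 3) := ⟨Nat.prime_three⟩
  obtain ⟨huv, htt, htu, htv, g1, g2, hte⟩ := top_ok
  obtain ⟨S, hS⟩ := three_sylow3
  refine stem_false_split hσ (by norm_num) S (t := kE cThreeT) (g := kE cThreeSwap) hS
    (by rintro _ ⟨i, hi, rfl⟩; exact pow3 (i + 2) (by omega)) (eSet_lifts hσ) ?_ ?_ ?_ ?_ (pow3 0 (by norm_num)) ?_ ?_ ?_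
    ?_ ?_ hz hzo
  · rintro _ ⟨i, hi, rfl⟩
    rw [inv_eq_pow (by norm_num) (show kE (eW3 i) ^ 3 = 1 from pow3 (i + 2) (by omega)), ← kE_pwW]
    exact mul_inv_eq_iff_eq_mul.2 (by
      rw [← kE_append, ← kE_append]; exact kE_eq (List.all_eq_true.1 hte i (List.mem_range.2 hi)))
  · rw [← kE_append]; exact kE_one htt
  · rw [← kE_append, ← kE_append]; exact kE_eq htu
  · rw [← kE_append, ← kE_append]; exact kE_eq htv
  · rw [← kE_append, ← kE_append]; exact kE_eq huv
  · exact mul_inv_eq_iff_eq_mul.2 (by rw [← kE_append, ← kE_append]; exact kE_eq g1)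
  · exact mul_inv_eq_iff_eq_mul.2 (by rw [← kE_append, ← kE_append]; exact kE_eq g2)
  · rintro _ ⟨i, hi, rfl⟩
    have := norm_mem i (by omega)
    rwa [show i / 5 = 0 by omega, show i % 5 = i by omega] at this
  · rintro _ ⟨i, hi, rfl⟩
    have := norm_mem (5 + i) (by omega)
    rwa [show (5 + i) / 5 = 1 by omega, show (5 + i) % 5 = i by omega] at this

theorem five_false {Γ : Type u} [Group Γ] [Finite Γ] {σ : Γ →* Q} (hσ : Cfsg.IsStemExtension σ) {z : Γ}
    (hz : z ∈ σ.ker) (hzo : orderOf z = 5) : False := by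
  haveI : Fact (Nat.Prime 5) := ⟨by norm_num⟩
  obtain ⟨u5, v5, c5, c1, uc, vc, gu, gv, gc⟩ := five_ok
  have hu : kE (w5 0) ^ 5 = 1 := by rw [← kE_pwW]; exact kE_one u5
  have hv : kE (w5 1) ^ 5 = 1 := by rw [← kE_pwW]; exact kE_one v5
  have hce : ⁅kE (w5 0), kE (w5 1)⁆ = kE cW := by
    rw [commutatorElement_def, cW, kE_append, kE_append, kE_append, kE_pwW, kE_pwW,
      inv_eq_pow (by norm_num) hu, inv_eq_pow (by norm_num) hv]
  have hw : ⁅kE (w5 0), kE (w5 1)⁆ ^ 5 = 1 := by rw [hce, ← kE_pwW]; exact kE_one c5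
  have hw1 : ⁅kE (w5 0), kE (w5 1)⁆ ≠ 1 := by rw [hce, ← kE_nil]; exact kE_ne c1
  have huw : kE (w5 0) * ⁅kE (w5 0), kE (w5 1)⁆ = ⁅kE (w5 0), kE (w5 1)⁆ * kE (w5 0) := by
    rw [hce, ← kE_append, ← kE_append]; exact kE_eq uc
  have hvw : kE (w5 1) * ⁅kE (w5 0), kE (w5 1)⁆ = ⁅kE (w5 0), kE (w5 1)⁆ * kE (w5 1) := by
    rw [hce, ← kE_append, ← kE_append]; exact kE_eq vc
  have gu' : kE (w5 2) * kE (w5 0) * (kE (w5 2))⁻¹ = (kE (w5 0))⁻¹ := mul_inv_eq_iff_eq_mul.2 (by
    rw [inv_eq_pow (by norm_num) hu, ← kE_pwW, ← kE_append, ← kE_append]; exact kE_eq gu)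
  have gv' : kE (w5 2) * kE (w5 1) * (kE (w5 2))⁻¹ = (kE (w5 1))⁻¹ := mul_inv_eq_iff_eq_mul.2 (by
    rw [inv_eq_pow (by norm_num) hv, ← kE_pwW, ← kE_append, ← kE_append]; exact kE_eq gv)
  have gw : kE (w5 2) * ⁅kE (w5 0), kE (w5 1)⁆ = ⁅kE (w5 0), kE (w5 1)⁆ * kE (w5 2) := by
    rw [hce, ← kE_append, ← kE_append]; exact kE_eq gc
  obtain ⟨S, hS⟩ := He.extraspecial_sylow
    (fun S => J2.SchurTwoClass.sylow_card card_Co3 (by norm_num) (k := 3) (by norm_num) (by norm_num) S)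
    hu hv hw rfl huw hvw hw1
  exact stem_false_extraspecial hσ (by norm_num) S hS hu hv hw hw1 huw hvw gu' gw gv' gw hz hzo

theorem ker_bot {Γ : Type u} [Group Γ] [Finite Γ] (σ : Γ →* Q) (hσ : Cfsg.IsStemExtension σ) : σ.ker = ⊥ := by
  by_contra hne
  obtain ⟨q, hq, hqd⟩ := Nat.exists_prime_and_dvd (mt Subgroup.card_eq_one.1 hne)
  haveI := Fact.mk hq
  obtain ⟨⟨z, hz⟩, hzo⟩ := exists_prime_orderOf_dvd_card' q hqd
  rw [← Subgroup.orderOf_coe] at hzo
  change orderOf z = q at hzo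
  by_cases h2 : q = 2
  · subst h2; exact two_false hσ hz hzo
  by_cases h3 : q = 3
  · subst h3; exact three_false hσ hz hzo
  by_cases h5 : q = 5
  · subst h5; exact five_false hσ hz hzo
  obtain ⟨S⟩ := Sylow.nonempty (p := q) (G := Q)
  refine stem_false_cyclic hσ S ?_ hz hzo
  by_cases hd : q ∣ 495766656000
  · have hmem : q = 7 ∨ q = 11 ∨ q = 23 := by
      rw [show (495766656000 : ℕ) = 2 ^ 10 * 3 ^ 7 * 5 ^ 3 * 7 * 11 * 23 by norm_num] at hd
      have hp : ∀ {r : ℕ}, r.Prime → q ∣ r → q = r := fun hr h => (Nat.prime_dvd_prime_iff_eq hq hr).1 h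
      rcases (Nat.Prime.dvd_mul hq).1 hd with h | h
      rotate_left
      · exact Or.inr (Or.inr (hp (by norm_num) h))
      rcases (Nat.Prime.dvd_mul hq).1 h with h | h
      rotate_left
      · exact Or.inr (Or.inl (hp (by norm_num) h))
      rcases (Nat.Prime.dvd_mul hq).1 h with h | h
      rotate_left
      · exact Or.inl (hp (by norm_num) h)
      rcases (Nat.Prime.dvd_mul hq).1 h with h | h
      rotate_left
      · exact absurd (hp (by norm_num) (hq.dvd_of_dvd_pow h)) h5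
      rcases (Nat.Prime.dvd_mul hq).1 h with h | h
      · exact absurd (hp Nat.prime_two (hq.dvd_of_dvd_pow h)) h2
      · exact absurd (hp Nat.prime_three (hq.dvd_of_dvd_pow h)) h3
    have hnd : ¬ q ^ (1 + 1) ∣ 495766656000 := by rcases hmem with rfl | rfl | rfl <;> norm_num
    exact isCyclic_of_prime_card (p := q) (by
      rw [J2.SchurTwoClass.sylow_card card_Co3 hq (k := 1) (by rwa [pow_one]) hnd S, pow_one])
  · have h0 := J2.SchurTwoClass.sylow_card card_Co3 hq (k := 0) (by simp) (by rwa [pow_one]) S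
    rw [pow_zero] at h0
    haveI : Subsingleton (S : Subgroup Q) := (Nat.card_eq_one_iff_unique.1 h0).1
    infer_instance

theorem schur_multiplier : Cfsg.HasCyclicSchurMultiplier Q 1 :=
  FGS2.hasCyclic_one_of_stem_ker_eq_bot fun _ _ _ σ hσ => ker_bot σ hσ

end Cfsg.Agent.FGS2.Co3
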