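import Cfsg.Agent.FGS2.Co3.Points
import Cfsg.Agent.Golay.LeechCo3Rank

/-! The table of the action on 552 minimal vectors is checked. -/

set_option autoImplicit false
set_option maxRecDepth 100000

namespace Cfsg.Agent.FGS2.Co3

open Cfsg.Agent.Golay

/-- The packed vector of a point. -/
def ptCode (c : ℕ) : ℕ := ptTree.get c

/-- The vector of a point, materialized. -/
def ptList (c : ℕ) : List ℤ := matl (numVec (ptCode c))

/-- The image of a point under a letter. -/
def img (c x : ℕ) : ℕ := Nat.land (Nat.shiftRight (rowTree.get c) (10 * x)) 1023

/-- The checks at one point. -/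
def pointOK (c : ℕ) : Bool :=
  (ptCode c).blt (2 ^ 96) && (Nat.beq c 0 || (ptCode (c - 1)).blt (ptCode c)) && leechTest (numVec (ptCode c)) &&
    (List.range 4).all fun j => Nat.blt (img c j) 552 && Nat.blt (img c (j + 4)) 552 &&
      Nat.beq (img (img c (j + 4)) j) c && Nat.beq (img (img c j) (j + 4)) c &&
      wordList (cOps.getD j []) (ptList c) == ptList (img c j)

/-- A block of points. -/
def pointsOK (lo n : ℕ) : Bool := (List.range n).all fun k => pointOK (lo + k)

theorem points0 : pointsOK 0 138 = true := by decide +kernel

theorem points1 : pointsOK 138 138 = true := by decide +kernel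

theorem points2 : pointsOK 276 138 = true := by decide +kernel

theorem points3 : pointsOK 414 138 = true := by decide +kernel

end Cfsg.Agent.FGS2.Co3
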