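import Cfsg.Agent.FGS2.Co3.Checks
import Cfsg.Agent.FGS2.He.Seven

/-! The two part of the Schur multiplier of the third Conway group is trivial. -/

set_option autoImplicit false
set_option maxRecDepth 100000

namespace Cfsg.Agent.FGS2.Co3

open Cfsg.Agent.FGS4.SchurSylow
open scoped commutatorElement
open Cfsg.Agent.Screen.CosetEnum (bit)


universe u

instance finite_Q : Finite Q :=
  Nat.finite_of_card_ne_zero (by rw [card_Co3]; norm_num)

/-- A generator of the Sylow subgroup. -/
noncomputable def eG (a : ℕ) : Q := kE (eW a)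

/-- A class representative. -/
noncomputable def cls (c : ℕ) : Q := kE (repW c)

theorem ev_eG : ∀ w : List ℕ, He.Collect.ev eG w = kE (flat w)
  | [] => kE_nil.symm
  | a :: w => by
    rw [He.Collect.ev_cons, ev_eG w, show flat (a :: w) = eW a ++ flat w from rfl, kE_append]
    rfl

theorem eG_rel (a b : ℕ) (hb : b < a) (ha : a < 10) :
    eG a * eG b = eG b * He.Collect.ev eG (He.Collect.word cert.tab a b) := by
  have h := List.all_eq_true.1 rel_ok a (List.mem_range.2 ha)
  rw [Bool.and_eq_true] at h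
  have h' := List.all_eq_true.1 h.2 b (List.mem_range.2 (hb.trans ha))
  simp only [decide_eq_true hb, Bool.not_true, Bool.false_or] at h'
  rw [ev_eG, eG, eG, ← kE_append, ← kE_append]
  exact kE_eq h'

theorem eG_sqr (a : ℕ) (ha : a < 10) :
    eG a * eG a = He.Collect.ev eG (He.Collect.word cert.tab a a) := by
  have h := List.all_eq_true.1 rel_ok a (List.mem_range.2 ha)
  rw [Bool.and_eq_true] at h
  rw [ev_eG, eG, ← kE_append]
  exact kE_eq h.1

theorem cls_sq (c : ℕ) (hc : c < 2) : cls c * cls c = 1 := by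
  rw [cls, ← kE_append]
  exact kE_one (List.all_eq_true.1 reps_sq c (List.mem_range.2 hc))

theorem sqs_conj (q : List ℕ × ℕ) (hq : q ∈ cert.sqs) :
    ∃ k : Q, k * cls q.2 * k⁻¹ = He.Collect.ev eG q.1 := by
  obtain ⟨i, hi, rfl⟩ := List.getElem_of_mem hq
  have h := List.all_eq_true.1 sqs_ok.2 i (List.mem_range.2 hi)
  rw [List.getD_eq_getElem cSqs _ hi] at h
  refine ⟨kE (cSqsWit.getD i []), mul_inv_eq_iff_eq_mul.2 ?_⟩
  rw [ev_eG, cls, ← kE_append, ← kE_append]
  exact kE_eq h

theorem tabOK_cert : He.Collect.tabOK cert.tab = true := by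
  have h := cert_ok
  simp only [He.Collect.Cert.ok, Bool.and_eq_true] at h
  exact h.1.1.1.1

theorem card_tail : Nat.card (Subgroup.closure (He.Collect.tail eG 0)) = 1024 := by
  refine le_antisymm (He.Collect.card_tail_le tabOK_cert eG eG_sqr eG_rel) ?_
  have step : ∀ k, k ≤ 10 → 2 ^ k ≤ Nat.card (Subgroup.closure (He.Collect.tail eG (10 - k))) := by
    intro k
    induction k with
    | zero => intro _; rw [pow_zero]; exact Nat.card_pos
    | succ k ih =>
      intro hk
      have hi := ih (by omega)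
      set l := 10 - (k + 1) with hl
      rw [show 10 - k = l + 1 by omega] at hi
      have hle : Subgroup.closure (He.Collect.tail eG (l + 1)) ≤ Subgroup.closure (He.Collect.tail eG l) :=
        Subgroup.closure_mono fun x hx => by
          obtain ⟨j, h1, h2, h3⟩ := hx
          exact ⟨j, by omega, h2, h3⟩
      have h := List.all_eq_true.1 tail_ok l (List.mem_range.2 (by omega))
      simp only [Bool.and_eq_true, Bool.not_eq_true', Nat.blt_eq] at h
      obtain ⟨⟨⟨⟨he, hx⟩, hS⟩, hout⟩, hst⟩ := h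
      have hsub : Subgroup.closure (He.Collect.tail eG (l + 1)) ≤
          Subgroup.closure {g : Q | ∃ w ∈ ((List.range 10).filter fun j => decide (l < j)).map eW, kE w = g} :=
        Subgroup.closure_mono fun x hx' => by
          obtain ⟨j, h1, h2, rfl⟩ := hx'
          exact ⟨eW j, List.mem_map_of_mem (List.mem_filter.2 ⟨List.mem_range.2 h2, decide_eq_true (by omega)⟩), rfl⟩
      have hno : eG l ∉ Subgroup.closure (He.Collect.tail eG (l + 1)) := fun hm => by
        refine not_mem_of_stable (S := tailS l) (x := tailX l) ?_ he hx hS hout (hsub hm)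
        intro w hw
        obtain ⟨j, hj, rfl⟩ := List.mem_map.1 hw
        obtain ⟨hj1, hj2⟩ := List.mem_filter.1 hj
        have hA := List.all_eq_true.1 tail_ok j hj1
        simp only [Bool.and_eq_true] at hA
        have hB := List.all_eq_true.1 hst j hj1
        simp only [hj2, Bool.not_true, Bool.false_or] at hB
        exact ⟨hA.1.1.1.1, hB⟩
      have hne : Subgroup.closure (He.Collect.tail eG (l + 1)) ≠ Subgroup.closure (He.Collect.tail eG l) := fun e =>
        hno (e ▸ Subgroup.subset_closure ⟨l, le_rfl, by omega, rfl⟩)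
      have hlt : Nat.card (Subgroup.closure (He.Collect.tail eG (l + 1))) <
          Nat.card (Subgroup.closure (He.Collect.tail eG l)) :=
        lt_of_le_of_ne (Subgroup.card_le_of_le hle) fun e => hne (Subgroup.eq_of_le_of_card_ge hle e.ge)
      obtain ⟨d, hd⟩ := Subgroup.card_dvd_of_le hle
      rw [hd] at hlt ⊢
      have hd2 : 2 ≤ d := by
        by_contra hh
        interval_cases d <;> omega
      calc 2 ^ (k + 1) = 2 ^ k * 2 := pow_succ 2 k
        _ ≤ _ := Nat.mul_le_mul hi hd2
  simpa using step 10 le_rfl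

theorem no_two {Γ : Type u} [Group Γ] [Finite Γ] {σ : Γ →* Q}
    (hσ : Cfsg.IsStemExtension σ) (hker : ∀ w ∈ σ.ker, w * w = 1) {z : Γ} (hz : z ∈ σ.ker)
    (hzo : orderOf z = 2) : False := by
  haveI : Fact (Nat.Prime 2) := ⟨Nat.prime_two⟩
  obtain ⟨S, hS⟩ := (IsPGroup.of_card (n := 10) (by rw [card_tail]; norm_num) :
    IsPGroup 2 (Subgroup.closure (He.Collect.tail eG 0))).exists_le_sylow
  have hS' : (S : Subgroup Q) = Subgroup.closure (He.Collect.tail eG 0) := (Subgroup.eq_of_le_of_card_ge hS (by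
    rw [card_tail, J2.SchurTwoClass.sylow_card card_Co3 Nat.prime_two (k := 10) (by norm_num) (by norm_num) S]
    norm_num)).symm
  exact He.Collect.no_kernel hσ hker cert cert_ok eG eG_sqr eG_rel cls cls_sq
    sqs_conj (fun q hq => by simp [cert] at hq) S hS' (by rw [hS', card_tail]) hz hzo

theorem two_false {Γ : Type u} [Group Γ] [Finite Γ] {σ : Γ →* Q} (hσ : Cfsg.IsStemExtension σ) {z : Γ}
    (hz : z ∈ σ.ker) (hzo : orderOf z = 2) : False := by
  have hc : ∀ w ∈ σ.ker, ∀ y : Γ, y * w = w * y := fun w hw => Subgroup.mem_center_iff.1 (hσ.2.1 hw)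
  letI : CommGroup σ.ker :=
    { (inferInstance : Group σ.ker) with mul_comm := fun x y => Subtype.ext (hc _ y.2 x) }
  let sqr : σ.ker →* σ.ker :=
    { toFun := fun x => x * x
      map_one' := one_mul 1
      map_mul' := fun x y => by simp only [mul_assoc, mul_left_comm y x y] }
  obtain ⟨u, hu⟩ : ∃ u, u ∉ sqr.range := by
    by_contra h
    push Not at h
    have hs : Function.Surjective sqr := fun x => h x
    have hinj : Function.Injective sqr := Finite.injective_iff_surjective.2 hs
    have h1 : (⟨z, hz⟩ : σ.ker) = 1 := hinj (Subtype.ext (show z * z = 1 * 1 by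
      rw [one_mul, ← pow_two, ← hzo]; exact pow_orderOf_eq_one z))
    have h2 : z = 1 := congrArg Subtype.val h1
    rw [h2, orderOf_one] at hzo
    exact absurd hzo (by norm_num)
  set M : Subgroup Γ := sqr.range.map σ.ker.subtype with hM
  have hMk : M ≤ σ.ker := Subgroup.map_subtype_le _
  haveI hMn : M.Normal := ⟨fun n hn g => by rwa [hc n (hMk hn) g, mul_inv_cancel_right]⟩
  let τ := QuotientGroup.lift M σ hMk
  have hτk : ∀ q ∈ τ.ker, ∃ x ∈ σ.ker, QuotientGroup.mk' M x = q := by
    intro q hq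
    obtain ⟨x, rfl⟩ := QuotientGroup.mk'_surjective M q
    exact ⟨x, hq, rfl⟩
  have hτ : Cfsg.IsStemExtension τ := by
    refine ⟨fun q => ?_, ?_, ?_⟩
    · obtain ⟨x, hx⟩ := hσ.1 q
      exact ⟨QuotientGroup.mk' M x, hx⟩
    · intro q hq
      obtain ⟨x, hx, rfl⟩ := hτk q hq
      refine Subgroup.mem_center_iff.2 fun y => ?_
      obtain ⟨y, rfl⟩ := QuotientGroup.mk'_surjective M y
      rw [← map_mul, ← map_mul, hc x hx y]
    · intro q hq
      obtain ⟨x, hx, rfl⟩ := hτk q hq
      have := Subgroup.mem_map_of_mem (QuotientGroup.mk' M) (hσ.2.2 hx)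
      rw [commutator_def, Subgroup.map_commutator,
        Subgroup.map_top_of_surjective _ (QuotientGroup.mk'_surjective M), ← commutator_def] at this
      exact this
  have hsq : ∀ q ∈ τ.ker, q * q = 1 := by
    intro q hq
    obtain ⟨x, hx, rfl⟩ := hτk q hq
    rw [← map_mul, QuotientGroup.mk'_apply, QuotientGroup.eq_one_iff]
    exact ⟨sqr ⟨x, hx⟩, ⟨_, rfl⟩, rfl⟩
  have hu' : QuotientGroup.mk' M (u : Γ) ≠ 1 := by
    intro h
    rw [QuotientGroup.mk'_apply, QuotientGroup.eq_one_iff] at h
    obtain ⟨v, hv, hvu⟩ := h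
    exact hu (Subtype.ext hvu ▸ hv)
  exact no_two hτ hsq (z := QuotientGroup.mk' M (u : Γ)) u.2
    (orderOf_eq_prime (by rw [pow_two]; exact hsq _ u.2) hu')

end Cfsg.Agent.FGS2.Co3
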